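import Cfsg.Agent.Lib.H04.Chev.NX

/-!
# The group generated by `N` and a short and a long fundamental root subgroup
-/

set_option autoImplicit false
set_option linter.style.longLine false
set_option linter.unusedSimpArgs false
set_option linter.unusedSectionVars false
set_option linter.unusedVariables false

open Cfsg.Lie Cfsg.Agent.H04.Chev

namespace Cfsg.Agent.H04.Long

variable {D : ChevalleyDatum} {T : Tabs} {U : Tabs3}

/-- two root lengths: all roots are reached from a short and a long fundamental root -/
theorem group_le_NXX (C : Checks D T) {F : Type*} [Field F] {i j : ℕ} (hi : i < D.rank) (hj : j < D.rank)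
    (hshort : D.isLong (D.simple i) = false) (hlong : D.isLong (D.simple j) = true) {rs rl : ℕ}
    (hreps : T.reps = [rs, rl]) (hrl : D.isLong rl = true)
    (hcls : ∀ j, j < D.rank → ∀ r, r < D.nroots → D.isLong (T.w (D.simple j) r) = D.isLong r) :
    D.group F ≤ D.monomialSubgroup F ⊔ D.rootSubgroup F (D.simple i) ⊔ D.rootSubgroup F (D.simple j) := by
  set M := D.monomialSubgroup F ⊔ D.rootSubgroup F (D.simple i) ⊔ D.rootSubgroup F (D.simple j) with hM
  have hN : D.monomialSubgroup F ≤ M := le_sup_left.trans le_sup_left
  have hPi : PinM C M (D.simple i) := fun t => Subgroup.mem_sup_left (Subgroup.mem_sup_right (Subgroup.subset_closure ⟨t, rfl⟩))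
  have hPj : PinM C M (D.simple j) := fun t => Subgroup.mem_sup_right (Subgroup.subset_closure ⟨t, rfl⟩)
  obtain ⟨q, hq, hPq, hcq⟩ := rep_reach C hN D.isLong hcls _ (C.simple_lt i hi) hPi
  obtain ⟨q', hq', hPq', hcq'⟩ := rep_reach C hN D.isLong hcls _ (C.simple_lt j hj) hPj
  rw [hshort] at hcq
  rw [hlong] at hcq'
  rw [hreps] at hq hq'
  simp only [List.mem_cons, List.not_mem_nil, or_false] at hq hq'
  have h1 : q = rs := by
    rcases hq with rfl | rfl
    · rfl
    · rw [hrl] at hcq
      exact absurd hcq (by simp)
  have h2 : PinM C M rl := by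
    rcases hq' with rfl | rfl
    · rw [h1] at hPq hcq
      rw [hcq] at hcq'
      exact absurd hcq' (by simp)
    · exact hPq'
  subst h1
  refine group_le_of_all C ?_
  apply root_induction C
  · intro q₀ hq₀
    rw [hreps] at hq₀
    simp only [List.mem_cons, List.not_mem_nil, or_false] at hq₀
    rcases hq₀ with rfl | rfl
    · exact hPq
    · exact h2
  · intro a r ha hr ih
    exact PinM_w C hN ha hr ih

end Cfsg.Agent.H04.Long
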